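import Mathlib

/-!
Kernels of `x ↦ x ^ r ^ m` in finite abelian groups of exponent dividing `r ^ (m + 1)` and order
`r ^ ((m + 1) * a)`: if the kernel has order `r ^ (m * a)` it is homocyclic.
-/

set_option autoImplicit false

namespace Cfsg.Agent.Chars2.Homocyclic

/-- The homomorphism from a free `ZMod n`-module given by elements killed by `n`. -/
def freeHom {A : Type*} [AddCommGroup A] {a : ℕ} (n : ℕ) (z : Fin a → A) (hz : ∀ i, n • z i = 0) :
    (Fin a → ZMod n) →+ A :=
  ∑ i, (ZMod.lift n ⟨zmultiplesHom A (z i), by simp [hz i]⟩).comp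
    (Pi.evalAddMonoidHom (fun _ : Fin a => ZMod n) i)

theorem freeHom_cast {A : Type*} [AddCommGroup A] {a : ℕ} (n : ℕ) (z : Fin a → A)
    (hz : ∀ i, n • z i = 0) (w : Fin a → ℤ) :
    freeHom n z hz (fun i => (w i : ZMod n)) = ∑ i, w i • z i := by
  simp [freeHom, AddMonoidHom.finsetSum_apply]

/-- Independence of the `r ^ m`-multiples gives injectivity. -/
theorem freeHom_injective {A : Type*} [AddCommGroup A] {a r m : ℕ} [Fact r.Prime] (z : Fin a → A)
    (hz : ∀ i, r ^ (m + 1) • z i = 0)
    (hind : ∀ w : Fin a → ℤ, ∑ i, w i • (r ^ m • z i) = 0 → ∀ i, (r : ℤ) ∣ w i) :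
    Function.Injective (freeHom (r ^ (m + 1)) z hz) := by
  rw [injective_iff_map_eq_zero]
  intro v hv
  obtain ⟨w, rfl⟩ : ∃ w : Fin a → ℤ, v = fun i => (w i : ZMod (r ^ (m + 1))) :=
    ⟨fun i => (v i).cast, funext fun i => (ZMod.intCast_zmod_cast (v i)).symm⟩
  rw [freeHom_cast] at hv
  have key : ∀ j : ℕ, j ≤ m + 1 → ∀ i, ((r : ℤ) ^ j) ∣ w i := by
    intro j
    induction j with
    | zero => intro _ i; simp
    | succ j ih =>
      intro hj
      choose u hu using ih (by omega)
      have h1 : ∑ i, u i • (r ^ m • z i) = 0 := by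
        have h2 : ((r : ℤ) ^ (m - j)) • ∑ i, w i • z i = 0 := by rw [hv, smul_zero]
        rw [Finset.smul_sum] at h2
        rw [← h2]
        refine Finset.sum_congr rfl fun i _ => ?_
        rw [← natCast_zsmul, smul_smul, smul_smul, hu i]
        congr 1
        rw [← mul_assoc, ← pow_add, show m - j + j = m by omega, Nat.cast_pow, mul_comm]
      intro i
      rw [hu i, pow_succ]
      exact mul_dvd_mul_left _ (hind u h1 i)
  funext i
  show (w i : ZMod (r ^ (m + 1))) = 0
  rw [ZMod.intCast_zmod_eq_zero_iff_dvd]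
  exact_mod_cast key (m + 1) le_rfl i

/-- A finite elementary abelian group of order `r ^ a` has an independent family of `a` elements. -/
theorem exists_independent {A : Type*} [AddCommGroup A] {a r : ℕ} [Fact r.Prime]
    (hexp : ∀ x : A, r • x = 0) (hcard : Nat.card A = r ^ a) :
    ∃ y : Fin a → A, ∀ w : Fin a → ℤ, ∑ i, w i • y i = 0 → ∀ i, (r : ℤ) ∣ w i := by
  haveI : Finite A := Nat.finite_of_card_ne_zero (by
    rw [hcard]; exact pow_ne_zero _ (Fact.out : r.Prime).ne_zero)
  haveI : Module (ZMod r) A := AddCommGroup.zmodModule hexp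
  haveI : Module.Finite (ZMod r) A := Module.Finite.of_finite
  have hfr : Module.finrank (ZMod r) A = a := by
    have h : Nat.card A = Nat.card (ZMod r) ^ Module.finrank (ZMod r) A := Module.natCard_eq_pow_finrank
    rw [hcard, Nat.card_zmod] at h
    exact (Nat.pow_right_injective (Fact.out : r.Prime).two_le h).symm
  let b : Module.Basis (Fin a) (ZMod r) A := Module.finBasisOfFinrankEq (ZMod r) A hfr
  refine ⟨fun j => b j, fun w hw i => ?_⟩
  have h : ∑ j, (w j : ZMod r) • b j = 0 := by
    rw [← hw]; simp [Int.cast_smul_eq_zsmul]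
  exact (ZMod.intCast_zmod_eq_zero_iff_dvd _ _).mp
    (Fintype.linearIndependent_iff.mp b.linearIndependent _ h i)

/-- Additive form of the structure lemma. -/
theorem exists_freeHom {A : Type*} [AddCommGroup A] {a r m : ℕ} [Fact r.Prime] (hm : m ≠ 0)
    (hexp : ∀ x : A, r ^ (m + 1) • x = 0) (hcard : Nat.card A = r ^ ((m + 1) * a))
    (hker : Nat.card (nsmulAddMonoidHom (α := A) (r ^ m)).ker = r ^ (m * a)) :
    Nonempty ((nsmulAddMonoidHom (α := A) (r ^ m)).ker ≃+ (Fin a → ZMod (r ^ m))) := by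
  have hr : r.Prime := Fact.out
  haveI : Finite A := Nat.finite_of_card_ne_zero (by rw [hcard]; exact pow_ne_zero _ hr.ne_zero)
  set f := nsmulAddMonoidHom (α := A) (r ^ m) with hf
  have hrange : Nat.card f.range = r ^ a := by
    have h := f.ker.card_mul_index
    rw [AddSubgroup.index_ker, hcard, hker, add_one_mul, pow_add] at h
    exact Nat.eq_of_mul_eq_mul_left (pow_pos hr.pos _) h
  have hry : ∀ y : f.range, r • y = 0 := by
    rintro ⟨y, x, rfl⟩
    refine Subtype.ext ?_
    show r • (r ^ m • x) = 0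
    rw [smul_smul, ← pow_succ', hexp]
  obtain ⟨y, hy⟩ := exists_independent hry hrange
  choose x hx using fun i => (y i).2
  obtain ⟨m', rfl⟩ := Nat.exists_eq_succ_of_ne_zero hm
  have hx' : ∀ i, r ^ (m' + 1) • x i = (y i : A) := fun i => hx i
  have hzk : ∀ i, r • x i ∈ f.ker := fun i => by
    show r ^ (m' + 1) • (r • x i) = 0
    rw [smul_smul, ← pow_succ]; exact hexp (x i)
  let z : Fin a → f.ker := fun i => ⟨r • x i, hzk i⟩
  have hz : ∀ i, r ^ (m' + 1) • z i = 0 := fun i => Subtype.ext (hzk i)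
  have hind : ∀ w : Fin a → ℤ, ∑ i, w i • (r ^ m' • z i) = 0 → ∀ i, (r : ℤ) ∣ w i := by
    intro w hw
    refine hy w (Subtype.ext ?_)
    have h := congrArg Subtype.val hw
    simp only [AddSubmonoidClass.coe_finsetSum, AddSubgroupClass.coe_zsmul, AddSubgroupClass.coe_nsmul,
      ZeroMemClass.coe_zero, z] at h ⊢
    rw [← h]
    refine Finset.sum_congr rfl fun i _ => ?_
    rw [smul_smul, ← pow_succ, hx']
  have hinj := freeHom_injective z hz hind
  refine ⟨(AddEquiv.ofBijective _ ((Nat.bijective_iff_injective_and_card _).mpr ⟨hinj, ?_⟩)).symm⟩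
  rw [hker, Nat.card_fun, Nat.card_zmod, Nat.card_fin, ← pow_mul]

/-- The structure lemma for groups written multiplicatively. -/
theorem nonempty_mulEquiv {G : Type*} [Group G] (hcomm : ∀ x y : G, x * y = y * x) {a r m : ℕ}
    [Fact r.Prime] (hm : m ≠ 0) (hexp : ∀ x : G, x ^ r ^ (m + 1) = 1)
    (hcard : Nat.card G = r ^ ((m + 1) * a)) (K : Subgroup G) (hK : ∀ x, x ∈ K ↔ x ^ r ^ m = 1)
    (hKcard : Nat.card K = r ^ (m * a)) :
    Nonempty (K ≃* (Fin a → Multiplicative (ZMod (r ^ m)))) := by
  letI : CommGroup G := { (inferInstance : Group G) with mul_comm := hcomm }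
  have hKf : ∀ x : G, x ∈ K ↔ Additive.ofMul x ∈ (nsmulAddMonoidHom (α := Additive G) (r ^ m)).ker :=
    fun x => (hK x).trans (by rw [AddMonoidHom.mem_ker]; exact Iff.rfl)
  let e : K ≃ (nsmulAddMonoidHom (α := Additive G) (r ^ m)).ker :=
    Equiv.subtypeEquiv Additive.ofMul hKf
  obtain ⟨φ⟩ := exists_freeHom (A := Additive G) hm (fun x => hexp x.toMul) hcard
    (by rw [← Nat.card_congr e]; exact hKcard)
  refine ⟨
    { toFun := fun k i => Multiplicative.ofAdd (φ (e k) i)
      invFun := fun v => e.symm (φ.symm fun i => (v i).toAdd)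
      left_inv := fun k => by simp
      right_inv := fun v => by funext i; simp
      map_mul' := fun k l => by
        funext i
        have : e (k * l) = e k + e l := rfl
        simp only [this, map_add, Pi.add_apply, ofAdd_add, Pi.mul_apply] }⟩

end Cfsg.Agent.Chars2.Homocyclic
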