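import Mathlib

/-!
`r`-adic valuations of `q ^ n - 1` in terms of the order `d` of `q` modulo `r`.
-/

set_option autoImplicit false

namespace Cfsg.Agent.Chars2.Homocyclic

open Polynomial

variable {q r : ℕ} [hr : Fact r.Prime]

theorem dvd_pow_sub_one_iff (hq : 0 < q) (n : ℕ) : r ∣ q ^ n - 1 ↔ orderOf (q : ZMod r) ∣ n := by
  rw [orderOf_dvd_iff_pow_eq_one, ← ZMod.natCast_eq_zero_iff, Nat.cast_sub (Nat.one_le_pow _ _ hq),
    Nat.cast_pow, Nat.cast_one, sub_eq_zero]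

theorem natCast_ne_zero' (hrq : ¬ r ∣ q) : (q : ZMod r) ≠ 0 :=
  fun h => hrq ((ZMod.natCast_eq_zero_iff _ _).mp h)

theorem orderOf_dvd_sub_one (hrq : ¬ r ∣ q) : orderOf (q : ZMod r) ∣ r - 1 :=
  orderOf_dvd_of_pow_eq_one (ZMod.pow_card_sub_one_eq_one (natCast_ne_zero' hrq))

theorem orderOf_pos' (hrq : ¬ r ∣ q) : 0 < orderOf (q : ZMod r) := by
  rcases Nat.eq_zero_or_pos (orderOf (q : ZMod r)) with h | h
  · have := orderOf_dvd_sub_one hrq
    rw [h, Nat.zero_dvd] at this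
    have := hr.out.two_le
    omega
  · exact h

theorem coprime_orderOf (hrq : ¬ r ∣ q) : r.Coprime (orderOf (q : ZMod r)) := by
  refine (hr.out.coprime_iff_not_dvd).mpr fun h => ?_
  have h1 := Nat.le_of_dvd (orderOf_pos' hrq) h
  have h2 := Nat.le_of_dvd (by have := hr.out.two_le; omega) (orderOf_dvd_sub_one hrq)
  have := hr.out.two_le
  omega

/-- `v_r(q ^ d - 1)`. -/
noncomputable def mval (q r : ℕ) : ℕ := padicValNat r (q ^ orderOf (q : ZMod r) - 1)

theorem pow_sub_one_ne_zero (hq : 2 ≤ q) {n : ℕ} (hn : n ≠ 0) : q ^ n - 1 ≠ 0 := by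
  have := Nat.one_lt_pow hn hq
  omega

theorem mval_pos (hq : 2 ≤ q) (hrq : ¬ r ∣ q) : mval q r ≠ 0 :=
  (dvd_iff_padicValNat_ne_zero (pow_sub_one_ne_zero hq (orderOf_pos' hrq).ne')).mp
    ((dvd_pow_sub_one_iff (by omega) _).mpr dvd_rfl)

theorem val_pow_sub_one (hq : 2 ≤ q) (hrq : ¬ r ∣ q) (hr2 : r ≠ 2) {n : ℕ} (hn : n ≠ 0)
    (hdn : orderOf (q : ZMod r) ∣ n) : padicValNat r (q ^ n - 1) = mval q r + padicValNat r n := by
  obtain ⟨k, rfl⟩ := hdn
  have hk : k ≠ 0 := fun h => hn (by rw [h, mul_zero])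
  have hd := orderOf_pos' hrq
  have h1 : 1 < q ^ orderOf (q : ZMod r) := Nat.one_lt_pow hd.ne' hq
  have h2 := padicValNat.pow_sub_pow (p := r) (hr.out.odd_of_ne_two hr2) (y := 1) h1
    ((dvd_pow_sub_one_iff (by omega) _).mpr dvd_rfl)
    (fun h => hrq (hr.out.dvd_of_dvd_pow h)) hk
  rw [one_pow] at h2
  rw [pow_mul, h2, padicValNat.mul hd.ne' hk,
    padicValNat.eq_zero_of_not_dvd ((hr.out.coprime_iff_not_dvd).mp (coprime_orderOf hrq)), zero_add]
  rfl

theorem val_pow_sub_one_of_not_dvd (hq : 0 < q) {n : ℕ} (hdn : ¬ orderOf (q : ZMod r) ∣ n) :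
    padicValNat r (q ^ n - 1) = 0 :=
  padicValNat.eq_zero_of_not_dvd fun h => hdn ((dvd_pow_sub_one_iff hq n).mp h)

theorem val_list_prod (L : List ℕ) (f : ℕ → ℕ) (P : ℕ → Prop) [DecidablePred P] (c : ℕ)
    (hf : ∀ e ∈ L, f e ≠ 0) (hv : ∀ e ∈ L, padicValNat r (f e) = if P e then c else 0) :
    padicValNat r (L.map f).prod = (L.filter fun e => decide (P e)).length * c := by
  induction L with
  | nil => simp
  | cons e L ih =>
    have hne : (L.map f).prod ≠ 0 := by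
      refine List.prod_ne_zero fun h => ?_
      obtain ⟨x, hx, hx0⟩ := List.mem_map.mp h
      exact hf x (List.mem_cons_of_mem _ hx) hx0
    rw [List.map_cons, List.prod_cons, padicValNat.mul (hf e List.mem_cons_self) hne,
      ih (fun x hx => hf x (List.mem_cons_of_mem _ hx)) (fun x hx => hv x (List.mem_cons_of_mem _ hx)),
      hv e List.mem_cons_self, List.filter_cons]
    by_cases h : P e <;> simp [h]; ring

/-- The valuation of `∏ ((q ^ j) ^ e - 1)`. -/
theorem val_degs (hq : 2 ≤ q) (hrq : ¬ r ∣ q) (hr2 : r ≠ 2) {L : List ℕ} (hL : ∀ e ∈ L, ¬ r ∣ e)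
    {j : ℕ} (hj : j ≠ 0) (P : ℕ → Prop) [DecidablePred P]
    (hP : ∀ e ∈ L, (orderOf (q : ZMod r) ∣ j * e ↔ P e)) :
    padicValNat r (L.map fun e => (q ^ j) ^ e - 1).prod =
      (L.filter fun e => decide (P e)).length * (mval q r + padicValNat r j) := by
  refine val_list_prod L _ P _ (fun e he => ?_) fun e he => ?_
  · rw [← pow_mul]
    exact pow_sub_one_ne_zero hq (mul_ne_zero hj fun h => hL e he (h ▸ dvd_zero r))
  · have he0 : e ≠ 0 := fun h => hL e he (h ▸ dvd_zero r)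
    rw [← pow_mul]
    split
    · next h =>
      rw [val_pow_sub_one hq hrq hr2 (mul_ne_zero hj he0) ((hP e he).mpr h), padicValNat.mul hj he0,
        padicValNat.eq_zero_of_not_dvd (hL e he), add_zero]
    · next h => exact val_pow_sub_one_of_not_dvd (by omega) fun h' => h ((hP e he).mp h')

/-- The cyclotomic value carries the whole `r`-part of `q ^ d - 1`. -/
theorem val_cyclotomic (hq : 2 ≤ q) (hrq : ¬ r ∣ q) :
    padicValNat r ((cyclotomic (orderOf (q : ZMod r)) ℤ).eval (q : ℤ)).natAbs = mval q r := by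
  set d := orderOf (q : ZMod r) with hd
  have hd0 : 0 < d := orderOf_pos' hrq
  set f : ℕ → ℕ := fun i => ((cyclotomic i ℤ).eval (q : ℤ)).natAbs with hf
  have hprod : ∀ n, 0 < n → ∏ i ∈ n.divisors, f i = q ^ n - 1 := by
    intro n hn
    have h := congrArg (Polynomial.eval (q : ℤ)) (prod_cyclotomic_eq_X_pow_sub_one hn ℤ)
    rw [eval_prod, eval_sub, eval_pow, eval_X, eval_one] at h
    have h' : Int.natAbsHom (∏ i ∈ n.divisors, (cyclotomic i ℤ).eval (q : ℤ)) =
        ((q : ℤ) ^ n - 1).natAbs := congrArg Int.natAbs h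
    rw [map_prod] at h'
    rw [show ∏ i ∈ n.divisors, f i = ((q : ℤ) ^ n - 1).natAbs from h']
    have : ((q : ℤ) ^ n - 1) = ((q ^ n - 1 : ℕ) : ℤ) := by
      rw [Nat.cast_sub (Nat.one_le_pow _ _ (by omega))]; push_cast; rfl
    rw [this, Int.natAbs_natCast]
  have hnd : ∀ i ∈ d.divisors.erase d, ¬ r ∣ f i := by
    intro i hi h
    obtain ⟨hne, hid⟩ := Finset.mem_erase.mp hi
    have hid' := Nat.dvd_of_mem_divisors hid
    have hi0 : 0 < i := Nat.pos_of_dvd_of_pos hid' hd0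
    have h1 : r ∣ q ^ i - 1 := by
      rw [← hprod i hi0]
      exact dvd_trans h (Finset.dvd_prod_of_mem f (Nat.mem_divisors_self i hi0.ne'))
    exact hne (Nat.dvd_antisymm hid' ((dvd_pow_sub_one_iff (by omega) i).mp h1))
  have hm := hprod d hd0
  rw [← Finset.mul_prod_erase _ f (Nat.mem_divisors_self d hd0.ne')] at hm
  have hne : f d * ∏ i ∈ d.divisors.erase d, f i ≠ 0 := hm ▸ pow_sub_one_ne_zero hq hd0.ne'
  obtain ⟨h1, h2⟩ := mul_ne_zero_iff.mp hne
  show padicValNat r (f d) = _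
  rw [mval, ← hd, ← hm, padicValNat.mul h1 h2,
    padicValNat.eq_zero_of_not_dvd (n := ∏ i ∈ d.divisors.erase d, f i) (fun h => ?_), add_zero]
  obtain ⟨i, hi, h'⟩ := (Prime.dvd_finsetProd_iff hr.out.prime f).mp h
  exact hnd i hi h'

end Cfsg.Agent.Chars2.Homocyclic
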