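import Mathlib

/-!
Sylow subgroups stable under an automorphism of order `r`, and Burnside's fusion in an abelian Sylow subgroup.
-/

set_option autoImplicit false

namespace Cfsg.Agent.Chars2.Homocyclic

open scoped Pointwise

/-- An `r`-subgroup fixed pointwise by an endomorphism of `r`-power order lies in a stable Sylow subgroup. -/
theorem exists_stable_sylow {G : Type*} [Group G] {r : ℕ} [Fact r.Prime] (H : Subgroup G) [Finite H]
    (σ : G →* G) (hσ : ∀ x ∈ H, σ x ∈ H) (hσr : ∀ x ∈ H, (⇑σ)^[r] x = x) {X₀ : Subgroup G} (hle : X₀ ≤ H)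
    (hX₀ : IsPGroup r X₀) (hfix : ∀ x ∈ X₀, σ x = x) :
    ∃ X : Subgroup G, X ≤ H ∧ X₀ ≤ X ∧ Nat.card X = r ^ padicValNat r (Nat.card H) ∧ ∀ x ∈ X, σ x ∈ X := by
  have hr : r.Prime := Fact.out
  let σ₀ : H →* H :=
    { toFun := fun x => ⟨σ x, hσ x x.2⟩
      map_one' := Subtype.ext (map_one σ)
      map_mul' := fun x y => Subtype.ext (map_mul σ _ _) }
  have hit : ∀ (k : ℕ) (x : H), (((⇑σ₀)^[k] x : H) : G) = (⇑σ)^[k] (x : G) := by
    intro k
    induction k with
    | zero => intro x; rfl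
    | succ k ih => intro x; rw [Function.iterate_succ_apply', Function.iterate_succ_apply', ← ih]; rfl
  have hbij : Function.Bijective σ₀ := by
    rw [← Finite.injective_iff_bijective]
    intro x y h
    obtain ⟨k, hk⟩ := Nat.exists_eq_succ_of_ne_zero hr.ne_zero
    have h' : (⇑σ₀)^[r] x = (⇑σ₀)^[r] y := by
      rw [hk, Function.iterate_succ_apply, Function.iterate_succ_apply, h]
    refine Subtype.ext ?_
    rw [← hσr x x.2, ← hσr y y.2, ← hit, ← hit, h']
  let s : MulAut H := MulEquiv.ofBijective σ₀ hbij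
  have hspow : ∀ (k : ℕ) (x : H), (s ^ k) x = (⇑σ₀)^[k] x := by
    intro k
    induction k with
    | zero => intro x; rfl
    | succ k ih => intro x; rw [pow_succ', MulAut.mul_apply, ih, Function.iterate_succ_apply']; rfl
  have hs : s ^ r = 1 := MulEquiv.ext fun x => Subtype.ext (by rw [hspow, hit]; exact hσr x x.2)
  have hX₀' : IsPGroup r (X₀.subgroupOf H) := hX₀.of_equiv (Subgroup.subgroupOfEquivOfLe hle).symm
  let A₀ : Subgroup (MulAut H) := (X₀.subgroupOf H).map MulAut.conj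
  have hA₀ : IsPGroup r A₀ := hX₀'.map _
  have hZ : IsPGroup r (Subgroup.zpowers s) := by
    rintro ⟨x, hx⟩
    obtain ⟨k, rfl⟩ := Subgroup.mem_zpowers_iff.mp hx
    refine ⟨1, Subtype.ext ?_⟩
    show (s ^ k) ^ r ^ 1 = 1
    rw [pow_one, ← zpow_natCast, ← zpow_mul, mul_comm, zpow_mul, zpow_natCast, hs, one_zpow]
  have hnorm : Subgroup.zpowers s ≤ Subgroup.normalizer (A₀ : Set (MulAut H)) := by
    refine (Subgroup.zpowers_le).mpr (Subgroup.centralizer_le_normalizer (A₀ : Set (MulAut H)) ?_)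
    rw [Subgroup.mem_centralizer_iff]
    rintro _ ⟨x, hx, rfl⟩
    refine MulEquiv.ext fun y => ?_
    have hsx : s x = x := Subtype.ext (hfix x hx)
    show MulAut.conj x (s y) = s (MulAut.conj x y)
    simp only [MulAut.conj_apply, map_mul, map_inv, hsx]
  have hA : IsPGroup r (A₀ ⊔ Subgroup.zpowers s : Subgroup (MulAut H)) :=
    hA₀.to_sup_of_normal_left' hZ hnorm
  obtain ⟨P, hP⟩ := hA.nonempty_fixed_point_of_prime_not_dvd_card (Sylow r H) (not_dvd_card_sylow r H)
  have hX : X₀.subgroupOf H ≤ (P : Subgroup H) := by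
    refine hX₀'.sylow_mem_fixedPoints_iff.mp fun x => ?_
    exact hP ⟨MulAut.conj (x : H), Subgroup.mem_sup_left (Subgroup.mem_map_of_mem _ x.2)⟩
  refine ⟨(P : Subgroup H).map H.subtype, Subgroup.map_subtype_le _, fun x hx => ?_, ?_, ?_⟩
  · exact ⟨⟨x, hle hx⟩, hX (show (⟨x, hle hx⟩ : H) ∈ X₀.subgroupOf H from hx), rfl⟩
  · rw [Subgroup.card_map_of_injective (Subgroup.subtype_injective _), P.card_eq_multiplicity,
      Nat.factorization_def _ hr]
  · rintro _ ⟨x, hx, rfl⟩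
    refine ⟨s x, ?_, rfl⟩
    have h : s • P = P := hP ⟨s, Subgroup.mem_sup_right (Subgroup.mem_zpowers s)⟩
    have h1 : s x ∈ s • (P : Subgroup H) := Subgroup.smul_mem_pointwise_smul x s _ hx
    rwa [← Sylow.pointwise_smul_def, h] at h1

/-- Fusion in an abelian Sylow subgroup is controlled by its normaliser. -/
theorem exists_normalizer_conj {G : Type*} [Group G] [Finite G] {r : ℕ} [Fact r.Prime] (P : Sylow r G)
    (hcomm : ∀ x ∈ P, ∀ y ∈ P, x * y = y * x) (d : G) (Y : Set G) (hY : ∀ y ∈ Y, y ∈ P)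
    (hd : ∀ y ∈ Y, d⁻¹ * y * d ∈ P) :
    ∃ n ∈ Subgroup.normalizer ((P : Subgroup G) : Set G), ∀ y ∈ Y, n⁻¹ * y * n = d⁻¹ * y * d := by
  let Z := Subgroup.centralizer Y
  have h1 : (P : Subgroup G) ≤ Z := fun x hx =>
    Subgroup.mem_centralizer_iff.mpr fun y hy => hcomm y (hY y hy) x hx
  have h2 : ((d • P : Sylow r G) : Subgroup G) ≤ Z := fun x hx => by
    obtain ⟨w, hw, rfl⟩ := hx
    refine Subgroup.mem_centralizer_iff.mpr fun y hy => ?_
    have hw' := hcomm _ (hd y hy) w hw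
    show y * (d * w * d⁻¹) = d * w * d⁻¹ * y
    calc y * (d * w * d⁻¹) = d * (d⁻¹ * y * d * w) * d⁻¹ := by group
      _ = d * (w * (d⁻¹ * y * d)) * d⁻¹ := by rw [hw']
      _ = d * w * d⁻¹ * y := by group
  obtain ⟨z, hz⟩ := MulAction.exists_smul_eq Z ((d • P).subtype h2) (P.subtype h1)
  rw [Sylow.smul_subtype] at hz
  have hz' : (z : G) • d • P = P := Sylow.subtype_injective hz
  rw [← mul_smul] at hz'
  refine ⟨(z : G) * d, Sylow.smul_eq_iff_mem_normalizer.mp hz', fun y hy => ?_⟩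
  have hc : y * (z : G) = (z : G) * y := Subgroup.mem_centralizer_iff.mp z.2 y hy
  calc ((z : G) * d)⁻¹ * y * ((z : G) * d) = d⁻¹ * ((z : G)⁻¹ * (y * (z : G))) * d := by group
    _ = d⁻¹ * y * d := by rw [hc]; group

end Cfsg.Agent.Chars2.Homocyclic
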