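import Cfsg.Agent.Chars2.Homocyclic.Abstract
import Cfsg.Agent.Chars2.Homocyclic.Arith
import Cfsg.Agent.Chars2.Homocyclic.Fixed
import Cfsg.Agent.Chars2.Homocyclic.Stable

/-!
Sylow `r`-subgroups of a Chevalley group over a field with `q` elements, read off inside the groups over two
extension fields: the one of degree `r` and one over which a Sylow subgroup is toral.
-/

set_option autoImplicit false

universe u

namespace Cfsg.Agent.Chars2.Homocyclic

open Cfsg.Lie Cfsg.Agent.Chev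
open scoped Matrix MatrixGroups Pointwise

variable {D : ChevalleyDatum}

theorem commute_iterate {G : Type*} [Group G] (σ : G → G) (σE : ∀ x y, σ (x * y) = σ x * σ y)
    {n g : G} {q : ℕ} {X : Set G} (hX : ∀ x ∈ X, σ x ∈ X)
    (h : ∀ x ∈ X, g * σ x * g⁻¹ = n⁻¹ * (g * x * g⁻¹) ^ q * n) :
    ∀ j : ℕ, ∀ x ∈ X, g * σ^[j] x * g⁻¹ = (n ^ j)⁻¹ * (g * x * g⁻¹) ^ q ^ j * n ^ j := by
  intro j
  induction j with
  | zero => intro x _; simp
  | succ j ih =>
    intro x hx
    have hmem : ∀ i : ℕ, σ^[i] x ∈ X := fun i => by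
      induction i with
      | zero => exact hx
      | succ i hi => rw [Function.iterate_succ_apply']; exact hX _ hi
    rw [Function.iterate_succ_apply', h _ (hmem j), ih x hx]
    have hconj : ((n ^ j)⁻¹ * (g * x * g⁻¹) ^ q ^ j * n ^ j) ^ q =
        (n ^ j)⁻¹ * (g * x * g⁻¹) ^ q ^ (j + 1) * n ^ j := by
      have := conj_pow (i := q) (a := (n ^ j)⁻¹) (b := (g * x * g⁻¹) ^ q ^ j)
      rw [inv_inv, ← pow_mul, ← pow_succ] at this
      exact this
    rw [hconj, pow_succ n j]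
    group

theorem nonempty_mulEquiv_core {F : Type u} [Field F] [Fintype F] {E K : Type} [Field E] [Fintype E]
    [Field K] [Fintype K] {r : ℕ} [Fact r.Prime] (hr2 : r ≠ 2) (hrq : ¬ r ∣ Fintype.card F)
    (C₀ : Cert.{u} D) (C : Cert.{0} D) {M : CoxeterMatrix (Fin D.rank)} (hM : CoxOK D M)
    (jE : F →+* E) (ι : E →+* K) (hE : Fintype.card E = Fintype.card F ^ r)
    (hreg : ∀ s < D.nroots, ∃ i < D.rank, ¬ (r : ℤ) ∣ D.cartan i s)
    (hK : r ∣ Fintype.card K - 1) {e : ℕ} (he : ¬ r ∣ e)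
    (hT : e * Nat.card (D.diagonalSubgroup F) = (Fintype.card F - 1) ^ D.rank)
    (hvK : padicValNat r (Nat.card (D.group K)) = padicValNat r (Nat.card (D.diagonalSubgroup K)))
    {a : ℕ} (hvF : padicValNat r (Nat.card (D.group F)) = mval (Fintype.card F) r * a)
    (hvE : padicValNat r (Nat.card (D.group E)) = (mval (Fintype.card F) r + 1) * a)
    (P : Sylow r ↥(D.group F)) :
    Nonempty (↥(P : Subgroup ↥(D.group F)) ≃*
      (Fin a → Multiplicative (ZMod (r ^ mval (Fintype.card F) r)))) := by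
  classical
  have hr : r.Prime := Fact.out
  set q := Fintype.card F with hq
  have hq2 : 2 ≤ q := Fintype.one_lt_card
  set m := mval q r with hm
  set d := orderOf (q : ZMod r) with hd
  -- the Frobenius endomorphisms
  obtain ⟨p, hp⟩ := CharP.exists F
  haveI := hp
  obtain ⟨k, hpr, hpk⟩ := FiniteField.card F p
  haveI : Fact p.Prime := ⟨hpr⟩
  haveI : CharP K p := charP_of_injective_ringHom (ι.comp jE).injective p
  haveI : CharP E p := charP_of_injective_ringHom jE.injective p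
  let φ : K →+* K := iterateFrobenius K p k
  let φE : E →+* E := iterateFrobenius E p k
  have hφ : ∀ t, φ t = t ^ q := fun t => by
    show iterateFrobenius K p k t = _
    rw [iterateFrobenius_def, hq, hpk]
  have hφE : ∀ t, φE t = t ^ q := fun t => by
    show iterateFrobenius E p k t = _
    rw [iterateFrobenius_def, hq, hpk]
  let σ := gmap D φ
  have hσit : ∀ (i : ℕ) (x : GL D.Idx K) (s t : D.Idx),
      ((σ^[i] x : GL D.Idx K) : Matrix D.Idx D.Idx K) s t = (x : Matrix D.Idx D.Idx K) s t ^ q ^ i := by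
    intro i
    induction i with
    | zero => intro x s t; simp
    | succ i ih =>
      intro x s t
      rw [Function.iterate_succ_apply']
      show φ (((σ^[i] x : GL D.Idx K) : Matrix D.Idx D.Idx K) s t) = _
      rw [hφ, ih, ← pow_mul, ← pow_succ]
  -- the groups over the two small fields
  set ι₀ : F →+* K := ι.comp jE with hι₀
  set G₀ := (D.group F).map (gmap D ι₀) with hG₀
  set G₁ := (D.group E).map (gmap D ι) with hG₁
  have hG01 : G₀ ≤ G₁ := by
    rintro _ ⟨x, hx, rfl⟩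
    exact ⟨gmap D jE x, map_group_le jE ⟨x, hx, rfl⟩, gmap_comp jE ι x⟩
  have hG1K : G₁ ≤ D.group K := map_group_le ι
  have hσG₁ : ∀ x ∈ G₁, σ x ∈ G₁ := by
    rintro _ ⟨x, hx, rfl⟩
    refine ⟨gmap D φE x, map_group_le φE ⟨x, hx, rfl⟩, Units.ext (Matrix.ext fun s t => ?_)⟩
    show ι (φE ((x : Matrix D.Idx D.Idx E) s t)) = φ (ι ((x : Matrix D.Idx D.Idx E) s t))
    rw [hφ, hφE, map_pow]
  have hσr : ∀ x ∈ G₁, (⇑σ)^[r] x = x := by
    rintro _ ⟨x, hx, rfl⟩
    refine Units.ext (Matrix.ext fun s t => ?_)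
    rw [hσit]
    show (ι ((x : Matrix D.Idx D.Idx E) s t)) ^ q ^ r = ι ((x : Matrix D.Idx D.Idx E) s t)
    rw [← map_pow, ← hE, FiniteField.pow_card]
  have hσ₀ : ∀ x ∈ G₀, σ x = x := by
    rintro _ ⟨x, hx, rfl⟩
    refine Units.ext (Matrix.ext fun s t => ?_)
    show φ (ι₀ ((x : Matrix D.Idx D.Idx F) s t)) = ι₀ ((x : Matrix D.Idx D.Idx F) s t)
    rw [hφ, ← map_pow, hq, FiniteField.pow_card]
  -- the image of `P` and a stable Sylow subgroup over `E`
  set X₀ := ((P : Subgroup ↥(D.group F)).map (D.group F).subtype).map (gmap D ι₀) with hX₀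
  have hX₀G : X₀ ≤ G₀ := Subgroup.map_mono (Subgroup.map_subtype_le _)
  let eP : ↥(P : Subgroup ↥(D.group F)) ≃* ↥X₀ :=
    ((P : Subgroup ↥(D.group F)).equivMapOfInjective _ (Subgroup.subtype_injective _)).trans
      (Subgroup.equivMapOfInjective _ _ (gmap_injective ι₀))
  have hX₀card : Nat.card X₀ = r ^ (m * a) := by
    rw [← Nat.card_congr eP.toEquiv, P.card_eq_multiplicity, Nat.factorization_def _ hr, hvF]
  obtain ⟨X, hXG, hX₀X, hXcard, hσX⟩ := exists_stable_sylow (r := r) G₁ σ hσG₁ hσr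
    (hX₀G.trans hG01) (P.isPGroup'.of_equiv eP) (fun x hx => hσ₀ x (hX₀G hx))
  have hG1card : padicValNat r (Nat.card G₁) = (m + 1) * a := by
    rw [hG₁, Subgroup.card_map_of_injective (gmap_injective ι), hvE]
  rw [hG1card] at hXcard
  have hXK : X ≤ D.group K := hXG.trans hG1K
  -- put `X` into the torus
  set TR := torusPart (F := K) C r with hTR
  have hTRK : TR ≤ D.group K := fun t ht => C.diagonal_le_group ((mem_torusPart C r).mp ht).1
  have hTRcard : Nat.card (TR.subgroupOf (D.group K)) = r ^ (Nat.card (D.group K)).factorization r := by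
    rw [Nat.card_congr (Subgroup.subgroupOfEquivOfLe hTRK).toEquiv, card_torusPart, Nat.factorization_def _ hr,
      hvK]
  let PK : Sylow r ↥(D.group K) := Sylow.ofCard (TR.subgroupOf (D.group K)) hTRcard
  have hPK : ∀ x : ↥(D.group K), x ∈ PK ↔ (x : GL D.Idx K) ∈ TR := fun x => Iff.rfl
  have hXpg : IsPGroup r (X.subgroupOf (D.group K)) :=
    (IsPGroup.of_card (n := (m + 1) * a) hXcard).of_equiv (Subgroup.subgroupOfEquivOfLe hXK).symm
  obtain ⟨Q, hQ⟩ := hXpg.exists_le_sylow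
  obtain ⟨g, hg⟩ := MulAction.exists_smul_eq ↥(D.group K) Q PK
  have hXT : ∀ x ∈ X, (g : GL D.Idx K) * x * (g : GL D.Idx K)⁻¹ ∈ TR := by
    intro x hx
    have h1 : (⟨x, hXK hx⟩ : ↥(D.group K)) ∈ (Q : Subgroup ↥(D.group K)) := hQ hx
    have h2 : MulAut.conj g • (⟨x, hXK hx⟩ : ↥(D.group K)) ∈ ((g • Q : Sylow r _) : Subgroup ↥(D.group K)) :=
      Subgroup.smul_mem_pointwise_smul _ _ _ h1
    rw [hg] at h2
    exact h2
  have hTRcomm : ∀ x ∈ TR, ∀ y ∈ TR, x * y = y * x := fun x hx y hy =>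
    C.diagonal_comm ((mem_torusPart C r).mp hx).1 ((mem_torusPart C r).mp hy).1
  have hXcomm : ∀ x ∈ X, ∀ y ∈ X, x * y = y * x := by
    intro x hx y hy
    have h := hTRcomm _ (hXT x hx) _ (hXT y hy)
    calc x * y = (g : GL D.Idx K)⁻¹ * (((g : GL D.Idx K) * x * (g : GL D.Idx K)⁻¹) *
          ((g : GL D.Idx K) * y * (g : GL D.Idx K)⁻¹)) * g := by group
      _ = _ := by rw [h]; group
  -- the Frobenius acts on `X` as a monomial conjugation followed by a power
  set g' : GL D.Idx K := (g : GL D.Idx K) with hg'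
  have hσg : σ g' ∈ D.group K := map_group_le φ ⟨g', g.2, rfl⟩
  let dd : ↥(D.group K) := ⟨σ g', hσg⟩ * g⁻¹
  have hσT : ∀ t ∈ TR, σ t = t ^ q := by
    intro t ht
    obtain ⟨χ, -, -, et⟩ := C.diagonal_char ((mem_torusPart C r).mp ht).1
    refine Units.ext ?_
    rw [coe_gmap, et, dMat_map, Units.val_pow_eq_pow_val, et, dMat_pow]
    exact dMat_congr fun s _ => hφ _
  have hbase : ∀ x ∈ X, g' * σ x * g'⁻¹ =
      (dd : GL D.Idx K)⁻¹ * (g' * x * g'⁻¹) ^ q * (dd : GL D.Idx K) := by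
    intro x hx
    have h := hσT _ (hXT x hx)
    rw [map_mul, map_mul, map_inv] at h
    rw [← h]
    show _ = (σ g' * g'⁻¹)⁻¹ * (σ g' * σ x * (σ g')⁻¹) * (σ g' * g'⁻¹)
    group
  set Y : Set ↥(D.group K) := {y | g'⁻¹ * (y : GL D.Idx K) * g' ∈ X} with hY
  have hYP : ∀ y ∈ Y, y ∈ PK := by
    intro y hy
    have h := hXT _ hy
    rw [show g' * (g'⁻¹ * (y : GL D.Idx K) * g') * g'⁻¹ = y by group] at h
    exact h
  have hYd : ∀ y ∈ Y, dd⁻¹ * y * dd ∈ PK := by
    intro y hy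
    obtain ⟨x, hx, hxy⟩ : ∃ x ∈ X, (g' * x * g'⁻¹) ^ q = (y : GL D.Idx K) := by
      have hcop : (orderOf (g'⁻¹ * (y : GL D.Idx K) * g')).Coprime q := by
        refine Nat.Coprime.coprime_dvd_left ?_
          (Nat.Coprime.pow_left ((m + 1) * a) ((hr.coprime_iff_not_dvd).mpr hrq))
        rw [← hXcard, ← Subgroup.orderOf_mk _ hy]
        exact orderOf_dvd_natCard _
      obtain ⟨i, hi⟩ := exists_pow_eq_self_of_coprime hcop.symm
      refine ⟨(g'⁻¹ * (y : GL D.Idx K) * g') ^ i, pow_mem hy i, ?_⟩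
      rw [conj_pow, ← pow_mul, mul_comm i, pow_mul, hi]
      group
    have h2 := hXT _ (hσX x hx)
    rw [hbase x hx, hxy] at h2
    exact h2
  obtain ⟨n, hnN, hn⟩ := exists_normalizer_conj PK (fun x hx y hy => Subtype.ext (hTRcomm _ hx _ hy)) dd Y hYP hYd
  have hnmono : (n : GL D.Idx K) ∈ D.monomialSubgroup K := by
    refine monomial_of_normalizes C r hM hreg hK n.2 fun t => ⟨fun ht => ?_, fun ht => ?_⟩
    · exact (Subgroup.mem_normalizer_iff.mp hnN ⟨t, hTRK ht⟩).mp ht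
    · have htK : t ∈ D.group K := by
        have := mul_mem (mul_mem (inv_mem n.2) (hTRK ht)) n.2
        rwa [show (n : GL D.Idx K)⁻¹ * ((n : GL D.Idx K) * t * (n : GL D.Idx K)⁻¹) * n = t by group] at this
      exact (Subgroup.mem_normalizer_iff.mp hnN ⟨t, htK⟩).mpr ht
  have hbase' : ∀ x ∈ (X : Set (GL D.Idx K)), g' * σ x * g'⁻¹ =
      (n : GL D.Idx K)⁻¹ * (g' * x * g'⁻¹) ^ q * (n : GL D.Idx K) := by
    intro x hx
    rw [hbase x hx]
    have hy : (⟨(g' * x * g'⁻¹) ^ q, pow_mem (mul_mem (mul_mem g.2 (hXK hx)) (inv_mem g.2)) q⟩ :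
        ↥(D.group K)) ∈ Y := by
      show g'⁻¹ * (g' * x * g'⁻¹) ^ q * g' ∈ X
      rw [conj_pow, show g'⁻¹ * (g' * x ^ q * g'⁻¹) * g' = x ^ q by group]
      exact pow_mem hx q
    exact (congrArg Subtype.val (hn _ hy)).symm
  have hiter := commute_iterate (fun x => σ x) (map_mul σ) (X := (X : Set (GL D.Idx K))) hσX hbase'
  obtain ⟨N, hrN, hN⟩ := exists_pow_mem_diagonal C r hvK
  have hmain : ∀ x ∈ X, σ^[N * d] x = x ^ q ^ (N * d) := by
    intro x hx
    have h := hiter (N * d) x hx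
    have hy : (g' * x * g'⁻¹) ^ q ^ (N * d) ∈ TR := pow_mem (hXT x hx) _
    have hnd : (n : GL D.Idx K) ^ (N * d) ∈ D.diagonalSubgroup K := by
      rw [pow_mul]; exact pow_mem (hN _ hnmono) d
    rw [mul_assoc ((n : GL D.Idx K) ^ (N * d))⁻¹, C.diagonal_comm ((mem_torusPart C r).mp hy).1 hnd,
      inv_mul_cancel_left, conj_pow] at h
    exact mul_left_cancel (mul_right_cancel h)
  have hN0 : N ≠ 0 := fun h => hrN (h ▸ dvd_zero r)
  have hd0 : 0 < d := orderOf_pos' hrq
  have hv : padicValNat r (q ^ (N * d) - 1) = m := by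
    rw [val_pow_sub_one hq2 hrq hr2 (mul_ne_zero hN0 hd0.ne') (Dvd.intro_left N rfl), padicValNat.mul hN0 hd0.ne',
      padicValNat.eq_zero_of_not_dvd hrN,
      padicValNat.eq_zero_of_not_dvd ((hr.coprime_iff_not_dvd).mp (coprime_orderOf hrq)), add_zero, add_zero]
  have hv' : padicValNat r (q ^ (N * d * r) - 1) = m + 1 := by
    rw [val_pow_sub_one hq2 hrq hr2 (mul_ne_zero (mul_ne_zero hN0 hd0.ne') hr.ne_zero)
      (Dvd.dvd.mul_right (Dvd.intro_left N rfl) r), padicValNat.mul (mul_ne_zero hN0 hd0.ne') hr.ne_zero,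
      padicValNat.mul hN0 hd0.ne', padicValNat.eq_zero_of_not_dvd hrN,
      padicValNat.eq_zero_of_not_dvd ((hr.coprime_iff_not_dvd).mp (coprime_orderOf hrq)), padicValNat_self]
  -- powers that fix `x` bound its order
  have hord : ∀ x ∈ X, ∀ (n' c : ℕ), 0 < n' → padicValNat r (q ^ n' - 1) = c → x ^ q ^ n' = x →
      x ^ r ^ c = 1 := by
    intro x hx n' c hn' hc hx'
    have h1 : x ^ (q ^ n' - 1) = 1 := by
      have : x ^ (q ^ n' - 1) * x = x := by
        rw [← pow_succ, Nat.sub_add_cancel (Nat.one_le_pow _ _ (by omega))]; exact hx'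
      exact mul_eq_right.mp this
    have h2 : orderOf x ∣ r ^ ((m + 1) * a) := by
      rw [← hXcard, ← Subgroup.orderOf_mk _ hx]; exact orderOf_dvd_natCard _
    obtain ⟨s, -, hs⟩ := (Nat.dvd_prime_pow hr).mp h2
    have h3 : r ^ s ∣ q ^ n' - 1 := hs ▸ orderOf_dvd_of_pow_eq_one h1
    have h4 : s ≤ c := hc ▸ (padicValNat_dvd_iff_le (pow_sub_one_ne_zero hq2 hn'.ne')).mp h3
    exact orderOf_dvd_iff_pow_eq_one.mp (hs ▸ pow_dvd_pow r h4)
  have hexp : ∀ x ∈ X, x ^ r ^ (m + 1) = 1 := by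
    intro x hx
    refine hord x hx (N * d * r) (m + 1) (Nat.pos_of_ne_zero
      (mul_ne_zero (mul_ne_zero hN0 hd0.ne') hr.ne_zero)) hv' ?_
    have key : ∀ i : ℕ, σ^[N * d * i] x = x ^ q ^ (N * d * i) := by
      intro i
      induction i with
      | zero => simp
      | succ i ih =>
        rw [Nat.mul_succ, Nat.add_comm, Function.iterate_add_apply, ih, iterate_map_pow, hmain x hx,
          ← pow_mul, ← pow_add]
    have hper : Function.IsPeriodicPt σ (N * d * r) x :=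
      (show Function.IsPeriodicPt σ r x from hσr x (hXG hx)).const_mul (N * d)
    exact (key r).symm.trans hper
  have hfixed : ∀ x ∈ X, (x ^ r ^ m = 1 ↔ x ∈ X₀) := by
    intro x hx
    constructor
    · intro hxm
      have h1 : σ^[N * d] x = x := by
        rw [hmain x hx]
        obtain ⟨c, hc⟩ : r ^ m ∣ q ^ (N * d) - 1 := hv ▸ pow_padicValNat_dvd
        rw [show q ^ (N * d) = r ^ m * c + 1 by
          have := Nat.one_le_pow (N * d) q (by omega); omega, pow_succ, pow_mul, hxm, one_pow, one_mul]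
      have h2 : Function.IsPeriodicPt σ ((N * d).gcd r) x :=
        (show Function.IsPeriodicPt σ (N * d) x from h1).gcd (hσr x (hXG hx))
      have hcop : (N * d).gcd r = 1 :=
        Nat.Coprime.mul_left ((hr.coprime_iff_not_dvd).mpr hrN).symm (coprime_orderOf hrq).symm
      rw [hcop] at h2
      have hx0 : x ∈ G₀ := mem_small_of_fixed C₀ C ι₀ φ hφ hM he hT (hXK hx) h2 hxm
      have hle : X₀ ≤ X ⊓ G₀ := le_inf hX₀X hX₀G
      have h3 : Nat.card ↥(X ⊓ G₀) ∣ r ^ ((m + 1) * a) := hXcard ▸ Subgroup.card_dvd_of_le inf_le_left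
      obtain ⟨s, -, hs⟩ := (Nat.dvd_prime_pow hr).mp h3
      have h4 : r ^ s ∣ Nat.card G₀ := hs ▸ Subgroup.card_dvd_of_le inf_le_right
      have h5 : s ≤ m * a := by
        rw [hG₀, Subgroup.card_map_of_injective (gmap_injective ι₀)] at h4
        rw [← hvF]
        exact (padicValNat_dvd_iff_le Nat.card_pos.ne').mp h4
      have h6 : X₀ = X ⊓ G₀ := Subgroup.eq_of_le_of_card_ge hle (by
        rw [hX₀card, hs]; exact Nat.pow_le_pow_right hr.pos h5)
      rw [h6]; exact ⟨hx, hx0⟩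
    · intro hx0
      refine hord x hx (N * d) m (Nat.pos_of_ne_zero (mul_ne_zero hN0 hd0.ne')) hv ?_
      rw [← hmain x hx]
      have hf := hσ₀ x (hX₀G hx0)
      exact Function.iterate_fixed hf _
  obtain ⟨E'⟩ := nonempty_mulEquiv (G := X) (fun x y => Subtype.ext (hXcomm _ x.2 _ y.2)) (mval_pos hq2 hrq)
    (fun x => Subtype.ext (hexp _ x.2)) hXcard (X₀.subgroupOf X)
    (fun x => by
      rw [Subgroup.mem_subgroupOf, ← hfixed _ x.2]
      exact ⟨fun h => Subtype.ext h, fun h => congrArg Subtype.val h⟩)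
    (by rw [Nat.card_congr (Subgroup.subgroupOfEquivOfLe hX₀X).toEquiv, hX₀card])
  exact ⟨(eP.trans (Subgroup.subgroupOfEquivOfLe hX₀X).symm).trans E'⟩

end Cfsg.Agent.Chars2.Homocyclic
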