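import Cfsg.Agent.Chars2.Homocyclic.Core
import Cfsg.Agent.Chev.OrdersByType

/-!
Sylow subgroups for primes not dividing `q` and the Weyl group order.
-/

set_option autoImplicit false

universe u

namespace Cfsg.Agent.Chars2.Homocyclic

open Cfsg.Lie Cfsg.Agent.Chev

/-- The order of the group and of its diagonal subgroup, up to a factor prime to `r`. -/
def OrderData (D : ChevalleyDatum) (degs : List ℕ) (r : ℕ) (F : Type u) [Field F] [Fintype F] : Prop :=
  (∃ e N : ℕ, ¬ r ∣ e ∧ e * Nat.card (D.group F) =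
      Fintype.card F ^ N * (degs.map fun i => Fintype.card F ^ i - 1).prod) ∧
  ∃ e : ℕ, ¬ r ∣ e ∧ e * Nat.card (D.diagonalSubgroup F) = (Fintype.card F - 1) ^ D.rank

section

variable {r : ℕ} [Fact r.Prime]

theorem val_eq_of_mul {e A B : ℕ} (he : ¬ r ∣ e) (hA : A ≠ 0) (h : e * A = B) :
    padicValNat r A = padicValNat r B := by
  rw [← h, padicValNat.mul (fun h0 : e = 0 => he (by simp [h0])) hA, padicValNat.eq_zero_of_not_dvd he,
    zero_add]

theorem val_group {D : ChevalleyDatum} {degs : List ℕ} {F : Type u} [Field F] [Fintype F]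
    (h : OrderData D degs r F) {q j : ℕ} (hq : 2 ≤ q) (hrq : ¬ r ∣ q) (hr2 : r ≠ 2) (hj : j ≠ 0)
    (hF : Fintype.card F = q ^ j) (hdeg : ∀ i ∈ degs, ¬ r ∣ i) (P : ℕ → Prop) [DecidablePred P]
    (hP : ∀ i ∈ degs, (orderOf (q : ZMod r) ∣ j * i ↔ P i)) :
    padicValNat r (Nat.card (D.group F)) =
      (degs.filter fun i => decide (P i)).length * (mval q r + padicValNat r j) := by
  obtain ⟨e, N, he, h⟩ := h.1
  have hz : (degs.map fun i => Fintype.card F ^ i - 1).prod ≠ 0 := by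
    refine List.prod_ne_zero fun h0 => ?_
    obtain ⟨i, hi, hi0⟩ := List.mem_map.mp h0
    rw [hF, ← pow_mul] at hi0
    exact pow_sub_one_ne_zero hq (mul_ne_zero hj fun h' : i = 0 => hdeg i hi (by rw [h']; exact dvd_zero r)) hi0
  have hN : ¬ r ∣ Fintype.card F ^ N := fun hd =>
    hrq ((Fact.out : r.Prime).dvd_of_dvd_pow ((hF ▸ (Fact.out : r.Prime).dvd_of_dvd_pow hd : r ∣ q ^ j)))
  rw [val_eq_of_mul he Nat.card_pos.ne' h, padicValNat.mul (pow_ne_zero _ Fintype.card_ne_zero) hz,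
    padicValNat.eq_zero_of_not_dvd hN, zero_add, hF]
  exact val_degs hq hrq hr2 hdeg hj P hP

/-- The general statement. -/
theorem sylow_homocyclic {D : ChevalleyDatum} {degs : List ℕ}
    (hD : D ∈ [chevG2, chevB2, chevD4, chevF4, chevE6, chevE7, chevE8])
    {M : CoxeterMatrix (Fin D.rank)} (hM : CoxOK D M)
    (hreg : ∀ s : Fin D.nroots, ∃ i : Fin D.rank,
      D.cartan i s = 1 ∨ D.cartan i s = -1 ∨ D.cartan i s = 2 ∨ D.cartan i s = -2)
    (hlen : degs.length = D.rank) (h2 : 2 ∈ degs)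
    {F : Type u} [Field F] [Fintype F] (hrq : ¬ r ∣ Fintype.card F) (hrW : ¬ r ∣ degs.prod)
    (hF : ¬ r ∣ degs.prod → OrderData D degs r F)
    (h0 : ¬ r ∣ degs.prod → ∀ (K : Type) [Field K] [Fintype K], OrderData D degs r K)
    (hrG : r ∣ Nat.card (D.group F)) (P : Sylow r ↥(D.group F)) :
    Nonempty (↥(P : Subgroup ↥(D.group F)) ≃*
      (Fin (degs.filter fun i => decide (orderOf (Fintype.card F : ZMod r) ∣ i)).length →
        Multiplicative (ZMod (r ^ padicValNat r
          ((Polynomial.cyclotomic (orderOf (Fintype.card F : ZMod r)) ℤ).eval (Fintype.card F : ℤ)).natAbs)))) := by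
  classical
  have hr : r.Prime := Fact.out
  set q := Fintype.card F with hqdef
  have hq : 2 ≤ q := Fintype.one_lt_card
  have hdeg : ∀ i ∈ degs, ¬ r ∣ i := fun i hi h => hrW (h.trans (List.dvd_prod hi))
  have hr2 : r ≠ 2 := fun h => hdeg 2 h2 (h ▸ dvd_rfl)
  set d := orderOf (q : ZMod r) with hd
  set a := (degs.filter fun i => decide (d ∣ i)).length with ha
  obtain ⟨C₀⟩ := nonempty_cert.{u} hD
  obtain ⟨C⟩ := nonempty_cert.{0} hD
  have hvF : padicValNat r (Nat.card (D.group F)) = mval q r * a := by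
    rw [val_group (hF hrW) hq hrq hr2 one_ne_zero (by rw [pow_one]) hdeg (fun i => d ∣ i)
      (fun i _ => by rw [one_mul]), padicValNat.one, add_zero, ha, mul_comm]
  have ha0 : a ≠ 0 := fun h => by
    have h1 : padicValNat r (Nat.card (D.group F)) ≠ 0 := (dvd_iff_padicValNat_ne_zero Nat.card_pos.ne').mp hrG
    rw [hvF, h, mul_zero] at h1
    exact h1 rfl
  -- the two extension fields
  obtain ⟨p, hp⟩ := CharP.exists F
  haveI := hp
  obtain ⟨k, hpr, hpk⟩ := FiniteField.card F p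
  haveI : Fact p.Prime := ⟨hpr⟩
  haveI : NeZero r := ⟨hr.ne_zero⟩
  letI : Fintype (FiniteField.Extension F p r) := Fintype.ofFinite _
  let jE : F →+* FiniteField.Extension F p r := algebraMap _ _
  haveI : CharP (FiniteField.Extension F p r) p := charP_of_injective_ringHom jE.injective p
  have hE : Fintype.card (FiniteField.Extension F p r) = q ^ r := by
    rw [← Nat.card_eq_fintype_card, FiniteField.natCard_extension, Nat.card_eq_fintype_card]
  have hN0 : degs.prod ≠ 0 := fun h => hrW (h ▸ dvd_zero r)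
  haveI : NeZero degs.prod := ⟨hN0⟩
  letI : Fintype (FiniteField.Extension (FiniteField.Extension F p r) p degs.prod) := Fintype.ofFinite _
  let ι : FiniteField.Extension F p r →+* FiniteField.Extension (FiniteField.Extension F p r) p degs.prod :=
    algebraMap _ _
  have hK : Fintype.card (FiniteField.Extension (FiniteField.Extension F p r) p degs.prod) =
      q ^ (r * degs.prod) := by
    rw [← Nat.card_eq_fintype_card, FiniteField.natCard_extension, Nat.card_eq_fintype_card, hE, ← pow_mul]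
  have hdN : d ∣ degs.prod := by
    obtain ⟨i, hi⟩ := List.exists_mem_of_length_pos (Nat.pos_of_ne_zero ha0)
    obtain ⟨hi1, hi2⟩ := List.mem_filter.mp hi
    exact (of_decide_eq_true hi2).trans (List.dvd_prod hi1)
  have hcop : d.Coprime r := (coprime_orderOf hrq).symm
  have hvE : padicValNat r (Nat.card (D.group (FiniteField.Extension F p r))) = (mval q r + 1) * a := by
    rw [val_group (h0 hrW _) hq hrq hr2 hr.ne_zero hE hdeg (fun i => d ∣ i)
      (fun i _ => hcop.dvd_mul_left), padicValNat_self, ha, mul_comm]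
  have hdvd : ∀ i, orderOf (q : ZMod r) ∣ r * degs.prod * i := fun i =>
    Dvd.dvd.mul_right (Dvd.dvd.mul_left hdN r) i
  have hrN : r * degs.prod ≠ 0 := mul_ne_zero hr.ne_zero hN0
  obtain ⟨eK, heK, hTK⟩ := (h0 hrW (FiniteField.Extension (FiniteField.Extension F p r) p degs.prod)).2
  have hvK : padicValNat r (Nat.card (D.group (FiniteField.Extension (FiniteField.Extension F p r) p degs.prod))) =
      padicValNat r (Nat.card (D.diagonalSubgroup
        (FiniteField.Extension (FiniteField.Extension F p r) p degs.prod))) := by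
    rw [val_group (h0 hrW _) hq hrq hr2 hrN hK hdeg (fun _ => True) (fun i _ => iff_true_intro (hdvd i)),
      val_eq_of_mul heK Nat.card_pos.ne' hTK, hK, padicValNat.pow,
      val_pow_sub_one hq hrq hr2 hrN (by simpa using hdvd 1), ← hlen]
    simp
  have hKr : r ∣ Fintype.card (FiniteField.Extension (FiniteField.Extension F p r) p degs.prod) - 1 := by
    rw [hK]; exact (dvd_pow_sub_one_iff (by omega) _).mpr (by simpa using hdvd 1)
  obtain ⟨eF, heF, hTF⟩ := (hF hrW).2
  have hreg' : ∀ s < D.nroots, ∃ i < D.rank, ¬ (r : ℤ) ∣ D.cartan i s := by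
    intro s hs
    obtain ⟨i, hi⟩ := hreg ⟨s, hs⟩
    refine ⟨i, i.isLt, fun hdv => ?_⟩
    have h3 : r ∣ (D.cartan i s).natAbs := Int.natCast_dvd.mp hdv
    have h4 := Nat.le_of_dvd (by rcases hi with h | h | h | h <;> simp_all) h3
    have := hr.two_le
    rcases hi with h | h | h | h <;> simp_all
    all_goals omega
  rw [val_cyclotomic hq hrq]
  exact nonempty_mulEquiv_core hr2 hrq C₀ C hM jE ι hE hreg' hKr heF hTF hvK hvF hvE P

end

section

variable {r : ℕ} [Fact r.Prime] {F : Type u} [Field F] [Fintype F]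

theorem not_dvd_gcd {n : ℕ} (a : ℕ) (hn : ¬ r ∣ n) : ¬ r ∣ Nat.gcd n a :=
  fun h => hn (h.trans (Nat.gcd_dvd_left _ _))

theorem not_dvd_gcd' {n : ℕ} (a : ℕ) (hn : ¬ r ∣ n) : ¬ r ∣ Nat.gcd a n :=
  fun h => hn (h.trans (Nat.gcd_dvd_right _ _))

theorem dataG2 : OrderData chevG2 [2, 6] r F :=
  ⟨⟨1, 6, (Fact.out : r.Prime).not_dvd_one, by rw [one_mul, orderG2 rfl]; simp [mul_assoc]⟩,
    ⟨1, (Fact.out : r.Prime).not_dvd_one, card_diagonalG2⟩⟩

theorem dataB2 (h : ¬ r ∣ 2) : OrderData chevB2 [2, 4] r F :=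
  ⟨⟨_, 4, not_dvd_gcd (Fintype.card F - 1) h, by rw [orderB2 rfl]; simp [mul_assoc]⟩,
    ⟨_, not_dvd_gcd' _ h, card_diagonalB2⟩⟩

theorem dataD4 (h : ¬ r ∣ 2) : OrderData chevD4 [2, 4, 4, 6] r F :=
  ⟨⟨_, 12, fun h' => not_dvd_gcd (Fintype.card F - 1) h ((Fact.out : r.Prime).dvd_of_dvd_pow (n := 2) h'),
      by rw [orderD4 rfl]; simp [mul_assoc]⟩,
    ⟨_, fun h' => ((Fact.out : r.Prime).dvd_mul.mp h').elim (not_dvd_gcd' _ h) (not_dvd_gcd' _ h),
      card_diagonalD4⟩⟩

theorem dataF4 : OrderData chevF4 [2, 6, 8, 12] r F :=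
  ⟨⟨1, 24, (Fact.out : r.Prime).not_dvd_one, by rw [one_mul, orderF4 rfl]; simp [mul_assoc]⟩,
    ⟨1, (Fact.out : r.Prime).not_dvd_one, card_diagonalF4⟩⟩

theorem dataE6 (h : ¬ r ∣ 3) : OrderData chevE6 [2, 5, 6, 8, 9, 12] r F :=
  ⟨⟨_, 36, not_dvd_gcd (Fintype.card F - 1) h, by rw [orderE6 rfl]; simp [mul_assoc]⟩,
    ⟨_, not_dvd_gcd' _ h, card_diagonalE6⟩⟩

theorem dataE7 (h : ¬ r ∣ 2) : OrderData chevE7 [2, 6, 8, 10, 12, 14, 18] r F :=
  ⟨⟨_, 63, not_dvd_gcd (Fintype.card F - 1) h, by rw [orderE7 rfl]; simp [mul_assoc]⟩,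
    ⟨_, not_dvd_gcd' _ h, card_diagonalE7⟩⟩

theorem dataE8 : OrderData chevE8 [2, 8, 12, 14, 18, 20, 24, 30] r F :=
  ⟨⟨1, 120, (Fact.out : r.Prime).not_dvd_one, by rw [one_mul, orderE8 rfl]; simp [mul_assoc]⟩,
    ⟨1, (Fact.out : r.Prime).not_dvd_one, card_diagonalE8⟩⟩

end

end Cfsg.Agent.Chars2.Homocyclic
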